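import Cfsg.Agent.Lib.Helper7.Tits.DataR

set_option autoImplicit false
set_option maxRecDepth 100000

/-! # The Tits group: kernel checks of the tables

The table of a subgroup `L3(3)` (5616 elements), the coset representatives, the indices of the
Schreier generators, the relators and a few special elements. -/

namespace Cfsg.Agent.Lib.Helper7.TitsD

open Cfsg.Agent.Lib.Helper60.F4 Cfsg.Agent.Lib.Helper60.Cert Cfsg.Agent.Lib.Helper7
open Cfsg.Agent.Lib.Helper7.TitsC (force allN allN2 allN_spec allN2_spec)

/-- evaluate a word in the letters -/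
def evP : List ℕ → ℕ
  | [] => oneP
  | l :: w => mulP (gP l) (evP w)

/-- the involution conjugating the first generator to the second -/
def tKP : ℕ := model.evalW lgen wtK

theorem inv_ok : allN 3 (fun j => Nat.beq (mulP (gP (2 * j)) (gP (2 * j + 1))) oneP) = true := by
  decide +kernel

theorem g0_ok : Nat.beq (gP 0) (lgen 0) = true := by decide +kernel

theorem g2_ok : Nat.beq (gP 2) (mulP (mulP tKP (lgen 0)) tKP) = true := by decide +kernel

theorem g4_ok : Nat.beq (gP 4) (model.evalW lgen wcc) = true := by decide +kernel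

theorem l1_ok : Nat.beq (lgen 1) (evP wl1) = true := by decide +kernel

/-! ### the table of the subgroup -/

theorem hl_nx_0 : allBelow (fun j => chkNxAll model HL (Nat.add 0 j)) 1404 = true := by
  decide +kernel
theorem hl_nx_1 : allBelow (fun j => chkNxAll model HL (Nat.add 1404 j)) 1404 = true := by
  decide +kernel
theorem hl_nx_2 : allBelow (fun j => chkNxAll model HL (Nat.add 2808 j)) 1404 = true := by
  decide +kernel
theorem hl_nx_3 : allBelow (fun j => chkNxAll model HL (Nat.add 4212 j)) 1404 = true := by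
  decide +kernel

theorem hl_nx : ∀ j < 5616, chkNxAll model HL j = true := by
  intro j hj
  rcases Nat.lt_or_ge j 1404 with h0 | h0
  · exact allBelow_off (chkNxAll model HL) 0 1404 hl_nx_0 j (Nat.zero_le j) h0
  rcases Nat.lt_or_ge j 2808 with h1 | h1
  · exact allBelow_off (chkNxAll model HL) 1404 1404 hl_nx_1 j h0 h1
  rcases Nat.lt_or_ge j 4212 with h2 | h2
  · exact allBelow_off (chkNxAll model HL) 2808 1404 hl_nx_2 j h1 h2
  exact allBelow_off (chkNxAll model HL) 4212 1404 hl_nx_3 j h2 hj

theorem hl_par_0 : allBelow (fun j => chkPar HL (Nat.add 0 j)) 5615 = true := by decide +kernel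

theorem hl_par : ∀ j < 5615, chkPar HL j = true := by
  intro j hj
  exact allBelow_off (chkPar HL) 0 5615 hl_par_0 j (Nat.zero_le j) hj

def chkPos (j : ℕ) : Bool := Nat.blt (hpos j) 5616 && Nat.beq (hord (hpos j)) j

def chkSort (k : ℕ) : Bool :=
  Nat.blt (model.key (tT (hord k))) (model.key (tT (hord (Nat.succ k))))

theorem hl_pos_0 : allBelow (fun j => chkPos (Nat.add 0 j)) 5616 = true := by decide +kernel

theorem hl_pos : ∀ j < 5616, chkPos j = true := by
  intro j hj
  exact allBelow_off chkPos 0 5616 hl_pos_0 j (Nat.zero_le j) hj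

theorem hl_sort_0 : allBelow (fun j => chkSort (Nat.add 0 j)) 5615 = true := by decide +kernel

theorem hl_sort : ∀ j < 5615, chkSort j = true := by
  intro j hj
  exact allBelow_off chkSort 0 5615 hl_sort_0 j (Nat.zero_le j) hj

theorem hl_inj : ∀ i < HL.N, ∀ j < HL.N, model.toM (HL.T i) = model.toM (HL.T j) → i = j := by
  apply inj_of_sorted hord hpos
  · intro j hj
    have h := hl_pos j hj
    simp only [chkPos, Bool.and_eq_true, Nat.blt_eq] at h
    exact ⟨h.1, Nat.eq_of_beq_eq_true h.2⟩
  · intro k hk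
    have h := hl_sort k (by change k + 1 < 5616 at hk; omega)
    simp only [chkSort, Nat.blt_eq] at h
    exact h

theorem HLok : LOK model HL where
  t0 := by decide +kernel
  npos := by decide
  nx := hl_nx
  par := hl_par
  inj := hl_inj

/-! ### coset representatives and Schreier generators -/

theorem r0_ok : rR 0 = oneP := by decide +kernel

theorem rtab_ok : allN2 64 50 (fun c => (c == 0) ||
    Nat.beq (rR c) (mulP (rR (TitsC.par c)) (gP (TitsC.plet c)))) = true := by
  decide +kernel

theorem k_ok : allN2 64 50 (fun c => allN 3 (fun j => Nat.blt (kk c j) 5616 &&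
    Nat.beq (mulP (rR c) (gP (2 * j))) (mulP (tT (kk c j)) (rR (TitsC.nx c (2 * j)))))) = true := by
  decide +kernel

/-! ### relators -/

/-- two words with the same value -/
def weq (w w' : List ℕ) : Bool := Nat.beq (evP w) (evP w')

/-- a word repeated -/
def wrep (w : List ℕ) : ℕ → List ℕ
  | 0 => []
  | n + 1 => w ++ wrep w n

/-- the relator of a quadruple -/
def r3word (d : List ℕ × List ℕ × List ℕ × List ℕ) : List ℕ :=
  CS.winv d.1 ++ d.2.1 ++ d.1 ++ CS.winv (CS.winv d.2.2.1 ++ d.2.2.2 ++ d.2.2.1)

/-- check that a word has trivial cube for a reason that lifts -/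
def cubOK (Z : List ℕ) : Bool :=
  (Z.all (fun l => decide (l < 4)) && weq (wrep Z 3) []) || Z == [4] || Z == [5]

/-- check of a relator in the generators of the subgroup -/
def hOK (r : List ℕ) : Bool := r.all (fun l => decide (l < 4)) && weq r []

/-- check of a relator between elements of order three -/
def r3OK (d : List ℕ × List ℕ × List ℕ × List ℕ) : Bool :=
  cubOK d.2.1 && cubOK d.2.2.2 &&
    weq (CS.winv d.1 ++ d.2.1 ++ d.1) (CS.winv d.2.2.1 ++ d.2.2.2 ++ d.2.2.1)

theorem rels_eq : TitsC.rels = hrels ++ [[4, 4, 4]] ++ r3.map r3word := by decide +kernel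

theorem hrels_ok : hrels.all hOK = true := by decide +kernel

theorem r3_ok : r3.all r3OK = true := by decide +kernel

theorem c3_ok : weq [4, 4, 4] [] = true := by decide +kernel

/-! ### special elements -/

theorem idx_ok : iR < 5616 ∧ iS < 5616 ∧ iU0 < 5616 ∧ iV0 < 5616 ∧ iU1 < 5616 ∧ iV1 < 5616 ∧
    i3u < 5616 ∧ i3v < 5616 ∧ i3s < 5616 ∧ i3t < 5616 := by decide

/-- the semidihedral pair -/
theorem sd_ok : (Nat.beq (model.powP (tT iR) 8) oneP && model.neq (model.powP (tT iR) 4) oneP &&
    Nat.beq (mulP (tT iS) (tT iS)) oneP &&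
    Nat.beq (mulP (tT iS) (tT iR)) (mulP (model.powP (tT iR) 3) (tT iS)) &&
    allN 8 (fun i => model.neq (tT iS) (model.powP (tT iR) i))) = true := by
  decide +kernel

/-- the generators of the subgroup are commutators -/
theorem cw_ok : (Nat.beq (mulP (tT iU0) (tT iV0)) (mulP (mulP (gP 0) (tT iV0)) (tT iU0)) &&
    Nat.beq (mulP (tT iU1) (tT iV1)) (mulP (mulP (gP 2) (tT iV1)) (tT iU1))) = true := by
  decide +kernel

/-- the commutator of the two elements of order three -/
def w3P : ℕ :=
  mulP (mulP (tT i3u) (tT i3v)) (mulP (model.powP (tT i3u) 2) (model.powP (tT i3v) 2))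

/-- an extraspecial group of order `27` with two reflections -/
theorem p3_ok : (Nat.beq (model.powP (tT i3u) 3) oneP && Nat.beq (model.powP (tT i3v) 3) oneP &&
    model.neq w3P oneP && Nat.beq (mulP (tT i3u) w3P) (mulP w3P (tT i3u)) &&
    Nat.beq (mulP (tT i3v) w3P) (mulP w3P (tT i3v)) &&
    Nat.beq (mulP (tT i3s) (tT i3u)) (mulP (tT i3u) (tT i3s)) &&
    Nat.beq (mulP (tT i3s) (tT i3v)) (mulP (model.powP (tT i3v) 2) (tT i3s)) &&
    Nat.beq (mulP (tT i3t) (tT i3u)) (mulP (model.powP (tT i3u) 2) (tT i3t)) &&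
    Nat.beq (mulP (tT i3t) (tT i3v)) (mulP (tT i3v) (tT i3t))) = true := by
  decide +kernel

/-- an elementary abelian group of order `25` with a scalar -/
theorem p5_ok : (Nat.beq (model.powP (evP w5u) 5) oneP && model.neq (evP w5u) oneP &&
    Nat.beq (model.powP (evP w5v) 5) oneP &&
    Nat.beq (mulP (evP w5u) (evP w5v)) (mulP (evP w5v) (evP w5u)) &&
    allN 5 (fun i => model.neq (evP w5v) (model.powP (evP w5u) i)) &&
    Nat.beq (mulP (evP w5t) (evP w5u)) (mulP (model.powP (evP w5u) 2) (evP w5t)) &&
    Nat.beq (mulP (evP w5t) (evP w5v)) (mulP (model.powP (evP w5v) 2) (evP w5t))) = true := by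
  decide +kernel

end Cfsg.Agent.Lib.Helper7.TitsD
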