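import Mathlib
import Cfsg.Agent.Lib.Helper7.StemAux
import Cfsg.Agent.Lib.Helper7.SignCoreC

set_option autoImplicit false

/-! # Auxiliary lemmas for the Schur multiplier of the Tits group

Lifting commutation through a central extension with the help of automorphisms (a scalar on
an elementary abelian group of order `25`, two reflections on an extraspecial group of order
`27`), and a counting argument for coset tables. -/

namespace Cfsg.Agent.Lib.Helper7.TA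

open Cfsg Cfsg.Agent.Lib.Helper35 Cfsg.Agent.Lib.Helper7
open scoped commutatorElement

section Lift

variable {Y G : Type*} [Group Y] [Group G]

/-- conjugation of a commutator -/
theorem conj_comm (θ a b : Y) : θ * ⁅a, b⁆ * θ⁻¹ = ⁅θ * a * θ⁻¹, θ * b * θ⁻¹⁆ := by
  simp only [commutatorElement_def]; group

/-- powers in the first argument of a central commutator -/
theorem comm_pow_central {a b : Y} (h : ⁅a, b⁆ ∈ Subgroup.center Y) (n : ℕ) :
    ⁅a ^ n, b⁆ = ⁅a, b⁆ ^ n :=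
  comm_pow_left_of_commute (a := a) (b := b) (Subgroup.mem_center_iff.mp h a) n

/-- powers in the second argument of a central commutator -/
theorem comm_pow_central_right {a b : Y} (h : ⁅a, b⁆ ∈ Subgroup.center Y) (n : ℕ) :
    ⁅a, b ^ n⁆ = ⁅a, b⁆ ^ n := by
  have h1 : ⁅b, a⁆ ∈ Subgroup.center Y := by
    rw [← commutatorElement_inv]; exact Subgroup.inv_mem _ h
  have h2 := comm_pow_central h1 n
  have h3 : ⁅a, b ^ n⁆ = ⁅b ^ n, a⁆⁻¹ := (commutatorElement_inv _ _).symm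
  rw [h3, h2, ← commutatorElement_inv, inv_pow, inv_inv]

/-- in a central extension, lifts of two commuting elements `u`, `v` with `u⁵ = 1` commute as
soon as some element squares both -/
theorem comm_of_scalar (τ : Y →* G) (hτ : Function.Surjective τ)
    (hc : τ.ker ≤ Subgroup.center Y) {u v t : G} (hu5 : u ^ 5 = 1) (huv : u * v = v * u)
    (htu : t * u * t⁻¹ = u ^ 2) (htv : t * v * t⁻¹ = v ^ 2) (y₁ y₂ : Y)
    (h₁ : τ y₁ ∈ ({u, v} : Set G)) (h₂ : τ y₂ ∈ ({u, v} : Set G)) : y₁ * y₂ = y₂ * y₁ := by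
  have key : ∀ a b : Y, τ a = u → τ b = v → a * b = b * a := by
    intro a b ha hb
    obtain ⟨θ, hθ⟩ := hτ t
    have hcz : ⁅a, b⁆ ∈ Subgroup.center Y := by
      apply hc
      show τ _ = 1
      rw [map_commutatorElement, ha, hb, commutatorElement_eq_one_iff_mul_comm]; exact huv
    have hk1 : (a ^ 2)⁻¹ * (θ * a * θ⁻¹) ∈ Subgroup.center Y := by
      apply hc
      show τ _ = 1
      rw [map_mul, map_inv, map_pow, map_mul, map_mul, map_inv, ha, hθ, htu, inv_mul_cancel]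
    have hk2 : (b ^ 2)⁻¹ * (θ * b * θ⁻¹) ∈ Subgroup.center Y := by
      apply hc
      show τ _ = 1
      rw [map_mul, map_inv, map_pow, map_mul, map_mul, map_inv, hb, hθ, htv, inv_mul_cancel]
    have e1 : θ * a * θ⁻¹ = a ^ 2 * ((a ^ 2)⁻¹ * (θ * a * θ⁻¹)) := by group
    have e2 : θ * b * θ⁻¹ = b ^ 2 * ((b ^ 2)⁻¹ * (θ * b * θ⁻¹)) := by group
    have h1 : θ * ⁅a, b⁆ * θ⁻¹ = ⁅a ^ 2, b ^ 2⁆ := by
      rw [conj_comm, e1, e2, comm_mul_central_left hk1, comm_mul_central_right hk2]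
    have h2 : θ * ⁅a, b⁆ * θ⁻¹ = ⁅a, b⁆ := by
      have h := Subgroup.mem_center_iff.mp hcz θ
      rw [h]; group
    have h3 : ⁅a ^ 2, b ^ 2⁆ = ⁅a, b⁆ ^ 4 := by
      have h4 : ⁅a ^ 2, b⁆ = ⁅a, b⁆ ^ 2 := comm_pow_central hcz 2
      have h5 : ⁅a ^ 2, b⁆ ∈ Subgroup.center Y := by
        rw [h4]; exact Subgroup.pow_mem _ hcz 2
      rw [comm_pow_central_right h5 2, h4, ← pow_mul]
    have h4 : ⁅a, b⁆ ^ 4 = ⁅a, b⁆ := by rw [← h3, ← h1, h2]
    have ha5 : a ^ 5 ∈ Subgroup.center Y := by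
      apply hc
      show τ _ = 1
      rw [map_pow, ha, hu5]
    have h5 : ⁅a, b⁆ ^ 5 = 1 := by
      rw [← comm_pow_central hcz 5, commutatorElement_eq_one_iff_mul_comm]
      exact (Subgroup.mem_center_iff.mp ha5 b).symm
    have hone : ⁅a, b⁆ = 1 := by
      have e : ⁅a, b⁆ ^ 5 = ⁅a, b⁆ ^ 4 * ⁅a, b⁆ := pow_succ _ 4
      rw [h4] at e
      have e6 : ⁅a, b⁆ ^ 4 = (⁅a, b⁆ * ⁅a, b⁆) * (⁅a, b⁆ * ⁅a, b⁆) := by
        simp only [pow_succ, pow_zero, one_mul, mul_assoc]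
      rw [h5] at e
      rw [← e, one_mul] at e6
      rw [h4] at e6
      exact e6
    exact commutatorElement_eq_one_iff_mul_comm.mp hone
  rcases h₁ with h₁ | h₁ <;> rcases h₂ with h₂ | h₂
  · exact comm_of_map_mem_zpowers τ hτ hc u y₁ y₂ (by rw [h₁]; exact Subgroup.mem_zpowers u)
      (by rw [h₂]; exact Subgroup.mem_zpowers u)
  · exact key y₁ y₂ h₁ h₂
  · exact (key y₂ y₁ h₂ h₁).symm
  · exact comm_of_map_mem_zpowers τ hτ hc v y₁ y₂ (by rw [h₁]; exact Subgroup.mem_zpowers v)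
      (by rw [h₂]; exact Subgroup.mem_zpowers v)

/-- in a central extension of a group containing `u`, `v` of order three whose commutator
commutes with both, and an element centralizing `u` and inverting `v`: a lift of `u` commutes
with the commutator of the lifts -/
theorem commute_lift_of_refl (τ : Y →* G) (hτ : Function.Surjective τ)
    (hc : τ.ker ≤ Subgroup.center Y) {u v t : G} (hu3 : u ^ 3 = 1)
    (huc : u * ⁅u, v⁆ = ⁅u, v⁆ * u) (hvc : v * ⁅u, v⁆ = ⁅u, v⁆ * v)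
    (htu : t * u * t⁻¹ = u) (htv : t * v * t⁻¹ = v⁻¹) (a b : Y) (ha : τ a = u) (hb : τ b = v) :
    Commute a ⁅a, b⁆ := by
  obtain ⟨θ, hθ⟩ := hτ t
  obtain ⟨c, hcd⟩ : ∃ c, c = ⁅a, b⁆ := ⟨_, rfl⟩
  have hτc : τ c = ⁅u, v⁆ := by rw [hcd, map_commutatorElement, ha, hb]
  have he : ⁅a, c⁆ ∈ Subgroup.center Y := by
    apply hc
    show τ _ = 1
    rw [map_commutatorElement, ha, hτc, commutatorElement_eq_one_iff_mul_comm]; exact huc
  have hk1 : a⁻¹ * (θ * a * θ⁻¹) ∈ Subgroup.center Y := by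
    apply hc
    show τ _ = 1
    rw [map_mul, map_inv, map_mul, map_mul, map_inv, ha, hθ, htu, inv_mul_cancel]
  have hk2 : b * (θ * b * θ⁻¹) ∈ Subgroup.center Y := by
    apply hc
    show τ _ = 1
    rw [map_mul, map_mul, map_mul, map_inv, hb, hθ, htv, mul_inv_cancel]
  have hk3 : c * (b⁻¹ * c⁻¹ * b) ∈ Subgroup.center Y := by
    apply hc
    show τ _ = 1
    rw [map_mul, map_mul, map_mul, map_inv, map_inv, hb, hτc]
    have h : v⁻¹ * ⁅u, v⁆⁻¹ * v = ⁅u, v⁆⁻¹ := by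
      have h2 : v * ⁅u, v⁆⁻¹ = ⁅u, v⁆⁻¹ * v := by
        have h3 : ⁅u, v⁆⁻¹ * (v * ⁅u, v⁆) * ⁅u, v⁆⁻¹ = ⁅u, v⁆⁻¹ * (⁅u, v⁆ * v) * ⁅u, v⁆⁻¹ := by
          rw [hvc]
        have h4 : ⁅u, v⁆⁻¹ * (v * ⁅u, v⁆) * ⁅u, v⁆⁻¹ = ⁅u, v⁆⁻¹ * v := by group
        have h5 : ⁅u, v⁆⁻¹ * (⁅u, v⁆ * v) * ⁅u, v⁆⁻¹ = v * ⁅u, v⁆⁻¹ := by group
        rw [h4, h5] at h3
        exact h3.symm
      rw [mul_assoc, ← h2, inv_mul_cancel_left]
    rw [h, mul_inv_cancel]
  have e1 : θ * a * θ⁻¹ = a * (a⁻¹ * (θ * a * θ⁻¹)) := by group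
  have e2 : θ * b * θ⁻¹ = b⁻¹ * (b * (θ * b * θ⁻¹)) := by group
  have h1 : θ * c * θ⁻¹ = c⁻¹ * (c * (b⁻¹ * c⁻¹ * b)) := by
    rw [hcd, conj_comm, e1, e2, comm_mul_central_left hk1, comm_mul_central_right hk2]
    simp only [commutatorElement_def]; group
  have h2 : θ * ⁅a, c⁆ * θ⁻¹ = ⁅a, c⁻¹⁆ := by
    rw [conj_comm, e1, h1, comm_mul_central_left hk1, comm_mul_central_right hk3]
  have h3 : θ * ⁅a, c⁆ * θ⁻¹ = ⁅a, c⁆ := by
    have h := Subgroup.mem_center_iff.mp he θ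
    rw [h]; group
  have h4 : ⁅a, c⁻¹⁆ = ⁅a, c⁆⁻¹ := by
    have h := comm_pow_central_right he 2
    have hc1 : ⁅a, c⁻¹⁆ = c⁻¹ * ⁅a, c⁆⁻¹ * c := by simp only [commutatorElement_def]; group
    rw [hc1]
    have hci := Subgroup.inv_mem _ he
    have h' := Subgroup.mem_center_iff.mp hci c⁻¹
    rw [h']; group
  have hsq : ⁅a, c⁆ * ⁅a, c⁆ = 1 := by
    have h : ⁅a, c⁆ = ⁅a, c⁆⁻¹ := by rw [← h4, ← h2, h3]
    nth_rewrite 1 [h]
    exact inv_mul_cancel _
  have ha3 : a ^ 3 ∈ Subgroup.center Y := by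
    apply hc
    show τ _ = 1
    rw [map_pow, ha, hu3]
  have hcube : ⁅a, c⁆ ^ 3 = 1 := by
    rw [← comm_pow_central he 3, commutatorElement_eq_one_iff_mul_comm]
    exact (Subgroup.mem_center_iff.mp ha3 c).symm
  have hone : ⁅a, c⁆ = 1 := by
    have h : ⁅a, c⁆ ^ 3 = ⁅a, c⁆ * ⁅a, c⁆ * ⁅a, c⁆ := by
      rw [pow_succ, pow_two]
    rw [h, hsq, one_mul] at hcube
    exact hcube
  rw [← hcd]
  exact commutatorElement_eq_one_iff_mul_comm.mp hone

/-- a stem extension of a group with a subgroup `⟨u, v⟩` of type `3^(1+2)` normalized by two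
reflections: the kernel has exponent prime to `3` -/
theorem stem_pow_eq_one_of_he27_refl [Finite G] (τ : Y →* G) (hτ : IsStemExtension τ)
    {z : Y} (hz : z ∈ τ.ker) {u v s t : G} (hu3 : u ^ 3 = 1) (hv3 : v ^ 3 = 1)
    (hc1 : ⁅u, v⁆ ≠ 1) (huc : u * ⁅u, v⁆ = ⁅u, v⁆ * u) (hvc : v * ⁅u, v⁆ = ⁅u, v⁆ * v)
    (hsu : s * u * s⁻¹ = u) (hsv : s * v * s⁻¹ = v⁻¹)
    (htu : t * u * t⁻¹ = u⁻¹) (htv : t * v * t⁻¹ = v) (n : ℕ)
    (hG : Nat.card G = 27 * n) : z ^ n = 1 := by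
  obtain ⟨a, ha⟩ := hτ.1 u
  obtain ⟨b, hb⟩ := hτ.1 v
  have hca : Commute a ⁅a, b⁆ :=
    commute_lift_of_refl τ hτ.1 hτ.2.1 hu3 huc hvc hsu hsv a b ha hb
  have hvu : ⁅v, u⁆ = ⁅u, v⁆⁻¹ := (commutatorElement_inv u v).symm
  have hcb' : Commute b ⁅b, a⁆ := by
    refine commute_lift_of_refl τ hτ.1 hτ.2.1 hv3 ?_ ?_ htv htu b a hb ha
    · rw [hvu]
      have h3 : ⁅u, v⁆⁻¹ * (v * ⁅u, v⁆) * ⁅u, v⁆⁻¹ = ⁅u, v⁆⁻¹ * (⁅u, v⁆ * v) * ⁅u, v⁆⁻¹ := by
        rw [hvc]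
      have h4 : ⁅u, v⁆⁻¹ * (v * ⁅u, v⁆) * ⁅u, v⁆⁻¹ = ⁅u, v⁆⁻¹ * v := by group
      have h5 : ⁅u, v⁆⁻¹ * (⁅u, v⁆ * v) * ⁅u, v⁆⁻¹ = v * ⁅u, v⁆⁻¹ := by group
      rw [h4, h5] at h3
      exact h3.symm
    · rw [hvu]
      have h3 : ⁅u, v⁆⁻¹ * (u * ⁅u, v⁆) * ⁅u, v⁆⁻¹ = ⁅u, v⁆⁻¹ * (⁅u, v⁆ * u) * ⁅u, v⁆⁻¹ := by
        rw [huc]
      have h4 : ⁅u, v⁆⁻¹ * (u * ⁅u, v⁆) * ⁅u, v⁆⁻¹ = ⁅u, v⁆⁻¹ * u := by group
      have h5 : ⁅u, v⁆⁻¹ * (⁅u, v⁆ * u) * ⁅u, v⁆⁻¹ = u * ⁅u, v⁆⁻¹ := by group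
      rw [h4, h5] at h3
      exact h3.symm
  have hcb : Commute b ⁅a, b⁆ := by
    have h : ⁅a, b⁆ = ⁅b, a⁆⁻¹ := (commutatorElement_inv b a).symm
    rw [h]
    exact hcb'.inv_right
  have hp : ⁅a, b⁆ ^ 3 = 1 := by
    have ha3 : a ^ 3 ∈ Subgroup.center Y := by
      apply hτ.2.1
      show τ _ = 1
      rw [map_pow, ha, hu3]
    have h := comm_pow_left_of_commute (a := a) (b := b) hca 3
    rw [← h, commutatorElement_eq_one_iff_mul_comm]
    exact (Subgroup.mem_center_iff.mp ha3 b).symm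
  have huv3 : ⁅u, v⁆ ^ 3 = 1 := by
    rw [← ha, ← hb, ← map_commutatorElement, ← map_pow, hp, map_one]
  have hp3 : Fact (Nat.Prime 3) := ⟨Nat.prime_three⟩
  have hordc : orderOf ⁅u, v⁆ = 3 := orderOf_eq_prime huv3 hc1
  have hord : ∀ i : ℤ, ⁅u, v⁆ ^ i = 1 → ((3 : ℕ) : ℤ) ∣ i := by
    intro i hi
    have h := (orderOf_dvd_iff_zpow_eq_one (x := ⁅u, v⁆) (i := i)).mpr hi
    rwa [hordc] at h
  have hidx := pow_index_eq_one_of_comap τ hτ.1 (hτ.2.1 hz) (hτ.2.2 hz) hz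
    (Subgroup.closure ({u, v} : Set G))
    (fun w hw hw1 => SA.comm_eq_one_of_lift τ hτ.2.1 a b ha hb hca hcb 3 hp hord w hw hw1)
  exact pow_eq_one_of_index _ hidx 27 n (by norm_num) hG
    (he27_dvd_card hu3 hv3 hc1 huc hvc)

/-- an elementary abelian subgroup of order `25` with an element squaring its generators:
the kernel of a stem extension has exponent prime to `5` -/
theorem stem_pow_eq_one_of_c5sq [Finite G] (τ : Y →* G) (hτ : IsStemExtension τ) {z : Y}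
    (hz : z ∈ τ.ker) {u v t : G} (hu5 : u ^ 5 = 1) (hu1 : u ≠ 1) (hv5 : v ^ 5 = 1)
    (huv : u * v = v * u) (hvu : v ∉ Subgroup.zpowers u)
    (htu : t * u * t⁻¹ = u ^ 2) (htv : t * v * t⁻¹ = v ^ 2) (n : ℕ)
    (hG : Nat.card G = 25 * n) : z ^ n = 1 := by
  have hidx := pow_index_eq_one_of_comm τ hτ.1 (hτ.2.1 hz) (hτ.2.2 hz) hz
    (Subgroup.closure ({u, v} : Set G))
    (fun y₁ y₂ h₁ h₂ => comm_of_map_mem_closure τ hτ.1 hτ.2.1 ({u, v} : Set G)
      (fun a b ha hb => comm_of_scalar τ hτ.1 hτ.2.1 hu5 huv htu htv a b ha hb) y₁ y₂ h₁ h₂)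
  refine pow_eq_one_of_index _ hidx 25 n (by norm_num) hG ?_
  have hp5 : Fact (Nat.Prime 5) := ⟨by norm_num⟩
  have hord : orderOf u = 5 := orderOf_eq_prime hu5 hu1
  have hpg : IsPGroup 5 (Subgroup.closure ({u, v} : Set G)) := by
    apply isPGroup_closure_of_comm
    · rintro x (rfl | rfl) y (rfl | rfl)
      · rfl
      · exact huv
      · exact huv.symm
      · rfl
    · rintro x (rfl | rfl)
      · exact hu5
      · exact hv5
  have h := pow_succ_dvd_card_of_pgroup (Subgroup.closure ({u, v} : Set G)) (Subgroup.zpowers u)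
    hpg (by rw [Subgroup.zpowers_le]; exact Subgroup.subset_closure (Set.mem_insert _ _)) 1
    (by rw [Nat.card_zpowers, hord]; norm_num) (x := v)
    (Subgroup.subset_closure (Set.mem_insert_of_mem _ rfl)) hvu
  simpa using h

end Lift

section Count

variable {P : Type*} [Group P]

/-- the subgroup generated by three elements lies in the union of the cosets of a coset table -/
theorem cover_of_table (γ : ℕ → P) (H : Subgroup P) (n : ℕ) (nx : ℕ → ℕ → ℕ) (par plet : ℕ → ℕ)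
    (hn : 0 < n)
    (htab : ∀ c < n, ∀ j < 3, nx c (2 * j) < n ∧ nx c (2 * j + 1) < n ∧
      nx (nx c (2 * j)) (2 * j + 1) = c ∧ nx (nx c (2 * j + 1)) (2 * j) = c)
    (hex : ∀ c < n, ∀ j < 3,
      CS.rho γ par plet c * γ j * (CS.rho γ par plet (nx c (2 * j)))⁻¹ ∈ H)
    {w : P} (hw : w ∈ Subgroup.closure ({γ 0, γ 1, γ 2} : Set P)) :
    ∃ c < n, w * (CS.rho γ par plet c)⁻¹ ∈ H := by
  induction hw using Subgroup.closure_induction_right with
  | one =>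
    refine ⟨0, hn, ?_⟩
    rw [CS.rho_zero, inv_one, mul_one]
    exact H.one_mem
  | mul_right x hx g hg ih =>
    obtain ⟨c, hc, hmem⟩ := ih
    have hgj : ∃ j < 3, g = γ j := by
      rcases hg with rfl | rfl | rfl
      · exact ⟨0, by norm_num, rfl⟩
      · exact ⟨1, by norm_num, rfl⟩
      · exact ⟨2, by norm_num, rfl⟩
    obtain ⟨j, hj, rfl⟩ := hgj
    refine ⟨nx c (2 * j), (htab c hc j hj).1, ?_⟩
    have h1 := H.mul_mem hmem (hex c hc j hj)
    have h2 : x * (CS.rho γ par plet c)⁻¹ *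
        (CS.rho γ par plet c * γ j * (CS.rho γ par plet (nx c (2 * j)))⁻¹)
        = x * γ j * (CS.rho γ par plet (nx c (2 * j)))⁻¹ := by group
    rw [h2] at h1
    exact h1
  | mul_inv_cancel x hx g hg ih =>
    obtain ⟨c, hc, hmem⟩ := ih
    have hgj : ∃ j < 3, g = γ j := by
      rcases hg with rfl | rfl | rfl
      · exact ⟨0, by norm_num, rfl⟩
      · exact ⟨1, by norm_num, rfl⟩
      · exact ⟨2, by norm_num, rfl⟩
    obtain ⟨j, hj, rfl⟩ := hgj
    have hc' : nx c (2 * j + 1) < n := (htab c hc j hj).2.1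
    have hback : nx (nx c (2 * j + 1)) (2 * j) = c := (htab c hc j hj).2.2.2
    refine ⟨nx c (2 * j + 1), hc', ?_⟩
    have h0 := hex _ hc' j hj
    rw [hback] at h0
    have h1 := H.mul_mem hmem (H.inv_mem h0)
    have h2 : x * (CS.rho γ par plet c)⁻¹ *
        (CS.rho γ par plet (nx c (2 * j + 1)) * γ j * (CS.rho γ par plet c)⁻¹)⁻¹
        = x * (γ j)⁻¹ * (CS.rho γ par plet (nx c (2 * j + 1)))⁻¹ := by group
    rw [h2] at h1
    exact h1

/-- if the order of the group is the number of cosets of the table times the order of the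
subgroup, the coset representatives other than the first are outside the subgroup -/
theorem not_mem_of_card (γ : ℕ → P) (H : Subgroup P) (n : ℕ) (nx : ℕ → ℕ → ℕ)
    (par plet : ℕ → ℕ) (hn : 0 < n)
    (htab : ∀ c < n, ∀ j < 3, nx c (2 * j) < n ∧ nx c (2 * j + 1) < n ∧
      nx (nx c (2 * j)) (2 * j + 1) = c ∧ nx (nx c (2 * j + 1)) (2 * j) = c)
    (hex : ∀ c < n, ∀ j < 3,
      CS.rho γ par plet c * γ j * (CS.rho γ par plet (nx c (2 * j)))⁻¹ ∈ H)
    (C : Subgroup P) (hC : C = Subgroup.closure ({γ 0, γ 1, γ 2} : Set P)) [Finite C]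
    (hHC : H ≤ C) (hcard : Nat.card C = n * Nat.card H) :
    ∀ c, 0 < c → c < n → CS.rho γ par plet c ∉ H := by
  classical
  intro c0 h0 hc0 hmem
  have hcov : ∀ g : C, ∃ c, c < n ∧ c ≠ c0 ∧ (g : P) * (CS.rho γ par plet c)⁻¹ ∈ H := by
    intro g
    have hg : (g : P) ∈ Subgroup.closure ({γ 0, γ 1, γ 2} : Set P) := hC ▸ g.2
    obtain ⟨c, hc, hm⟩ := cover_of_table γ H n nx par plet hn htab hex hg
    by_cases hcc : c = c0
    · refine ⟨0, hn, by omega, ?_⟩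
      rw [CS.rho_zero, inv_one, mul_one]
      rw [hcc] at hm
      have h2 := H.mul_mem hm hmem
      rw [inv_mul_cancel_right] at h2
      exact h2
    · exact ⟨c, hc, hcc, hm⟩
  choose f hf using hcov
  let F : C → ℕ × H := fun g => (f g, ⟨(g : P) * (CS.rho γ par plet (f g))⁻¹, (hf g).2.2⟩)
  have hinj : Function.Injective F := by
    intro a b hab
    have h1 : f a = f b := congrArg Prod.fst hab
    have h2 : (a : P) * (CS.rho γ par plet (f a))⁻¹ = (b : P) * (CS.rho γ par plet (f b))⁻¹ :=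
      congrArg (fun p : ℕ × H => (p.2 : P)) hab
    rw [h1] at h2
    exact Subtype.ext (mul_right_cancel h2)
  haveI : Fintype C := Fintype.ofFinite C
  haveI : Finite H :=
    Finite.of_injective (fun h : H => (⟨h.1, hHC h.2⟩ : C))
      (fun a b hab => Subtype.ext (congrArg (fun x : C => (x : P)) hab))
  haveI : Fintype H := Fintype.ofFinite H
  have hle : Fintype.card C ≤ (((Finset.range n).erase c0) ×ˢ (Finset.univ : Finset H)).card := by
    rw [← Finset.card_univ]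
    apply Finset.card_le_card_of_injOn F
    · intro g _
      rw [Finset.mem_coe, Finset.mem_product, Finset.mem_erase, Finset.mem_range]
      exact ⟨⟨(hf g).2.1, (hf g).1⟩, Finset.mem_univ _⟩
    · exact hinj.injOn
  rw [Finset.card_product, Finset.card_erase_of_mem (Finset.mem_range.mpr hc0), Finset.card_range,
    Finset.card_univ] at hle
  rw [Nat.card_eq_fintype_card, Nat.card_eq_fintype_card] at hcard
  rw [hcard] at hle
  have hpos : 0 < Fintype.card H := Fintype.card_pos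
  have hlt : (n - 1) * Fintype.card H < n * Fintype.card H :=
    Nat.mul_lt_mul_of_pos_right (by omega) hpos
  omega

end Count

end Cfsg.Agent.Lib.Helper7.TA
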