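import Mathlib
import Cfsg.Agent.Lib.Helper7.Tits.RowsA

set_option autoImplicit false
set_option maxRecDepth 100000

/-! # The sign certificate for the coset table of the Tits group: reductions

A list of rows (a relator read from a coset) whose leading unknowns decrease by one, and a list
of rows given with their reductions modulo the former, for which the remaining linear system over
`ZMod 2` has only the trivial solution.  Everything here is checked by kernel computation. -/

namespace Cfsg.Agent.Lib.Helper7.TitsC

open Cfsg.Agent.Lib.Helper7

theorem fb_ok_8 : FB8.all (CSC.flagOK 3200 nx vt rels 497 rowsD) = true := by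
  decide +kernel

theorem fb_ok_9 : FB9.all (CSC.flagOK 3200 nx vt rels 497 rowsD) = true := by
  decide +kernel

theorem fb_ok_10 : FB10.all (CSC.flagOK 3200 nx vt rels 497 rowsD) = true := by
  decide +kernel

theorem fb_ok_11 : FB11.all (CSC.flagOK 3200 nx vt rels 497 rowsD) = true := by
  decide +kernel

end Cfsg.Agent.Lib.Helper7.TitsC
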