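import Mathlib
import Cfsg.Agent.Lib.Helper7.Tits.RowsB0
import Cfsg.Agent.Lib.Helper7.Tits.RowsB1
import Cfsg.Agent.Lib.Helper7.Tits.RowsB2
import Cfsg.Agent.Lib.Helper7.Tits.RowsB3
import Cfsg.Agent.Lib.Helper7.Tits.RowsB4

set_option autoImplicit false
set_option maxRecDepth 100000

/-! # The sign certificate for the coset table of the Tits group

A list of rows (a relator read from a coset) whose leading unknowns decrease by one, and a list
of rows given with their reductions modulo the former, for which the remaining linear system over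
`ZMod 2` has only the trivial solution.  Everything here is checked by kernel computation. -/

namespace Cfsg.Agent.Lib.Helper7.TitsC

open Cfsg.Agent.Lib.Helper7

theorem fl_ok : ∀ k < 20, (FL.getD k []).all (CSC.flagOK 3200 nx vt rels 497 rowsD) = true := by
  intro k hk
  interval_cases k
  · exact fb_ok_0
  · exact fb_ok_1
  · exact fb_ok_2
  · exact fb_ok_3
  · exact fb_ok_4
  · exact fb_ok_5
  · exact fb_ok_6
  · exact fb_ok_7
  · exact fb_ok_8
  · exact fb_ok_9
  · exact fb_ok_10
  · exact fb_ok_11
  · exact fb_ok_12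
  · exact fb_ok_13
  · exact fb_ok_14
  · exact fb_ok_15
  · exact fb_ok_16
  · exact fb_ok_17
  · exact fb_ok_18
  · exact fb_ok_19

theorem rowsF_ok : ∀ cr ∈ rowsF, CSC.flagOK 3200 nx vt rels 497 rowsD cr = true := by
  intro cr hcr
  obtain ⟨l, hl, hcrl⟩ := List.mem_flatten.mp hcr
  obtain ⟨k, hk, rfl⟩ := List.mem_iff_getElem.mp hl
  have h := fl_ok k hk
  rw [List.getD_eq_getElem _ _ hk] at h
  exact List.all_eq_true.mp h cr hcrl

end Cfsg.Agent.Lib.Helper7.TitsC
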