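import Cfsg.Agent.Lib.Helper7.Tits.Chk
import Cfsg.Agent.Lib.Helper7.Tits.Rows
import Cfsg.Agent.Lib.Helper7.Tits.Lemmas

set_option autoImplicit false
set_option maxRecDepth 100000

/-! # The Tits group: generators, a subgroup `L3(3)` of index 3200, the sign method -/

namespace Cfsg.Agent.Lib.Helper7.TitsG

open Cfsg Cfsg.Agent.Lib.Helper7 Cfsg.Agent.Lib.Helper35
open Cfsg.Agent.Lib.Helper60.F4 Cfsg.Agent.Lib.Helper60.Cert
open Cfsg.Agent.Lib.Helper7.TitsD
open scoped commutatorElement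

/-! ### the letters are elements of the group -/

theorem wtK_lt : ∀ k ∈ wtK, k < 2 := by decide +kernel

theorem wcc_lt : ∀ k ∈ wcc, k < 2 := by decide +kernel

theorem wl1_lt : ∀ l ∈ wl1, l < 6 := by decide +kernel

theorem tK_real : Real model ψF Tg tKP :=
  Real.evalW lgen wtK (fun k hk => lgen_real_Tg k (wtK_lt k hk))

theorem inv_chk (j : ℕ) (hj : j < 3) : model.mulP (gP (2 * j)) (gP (2 * j + 1)) = model.oneP :=
  Nat.eq_of_beq_eq_true (TitsC.allN_spec _ _ inv_ok j hj)

theorem g_real_even : ∀ j < 3, Real model ψF Tg (gP (2 * j)) := by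
  intro j hj
  interval_cases j
  · exact (lgen_real_Tg 0 (by norm_num)).of_eq (Nat.eq_of_beq_eq_true g0_ok).symm
  · exact ((tK_real.mul (lgen_real_Tg 0 (by norm_num))).mul tK_real).of_eq
      (Nat.eq_of_beq_eq_true g2_ok).symm
  · exact (Real.evalW lgen wcc (fun k hk => lgen_real_Tg k (wcc_lt k hk))).of_eq
      (Nat.eq_of_beq_eq_true g4_ok).symm

theorem g_ex (j : ℕ) : ∃ g : GLf, (j < 3 → g ∈ Tg ∧ ψF g = model.toM (gP (2 * j))) ∧
    (3 ≤ j → g = 1) := by
  by_cases h : j < 3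
  · obtain ⟨g, hg, hv⟩ := g_real_even j h
    exact ⟨g, fun _ => ⟨hg, hv⟩, fun h' => absurd h (by omega)⟩
  · exact ⟨1, fun h' => absurd h' h, fun _ => rfl⟩

/-- the three generators -/
noncomputable def γ (j : ℕ) : GLf := Classical.choose (g_ex j)

theorem γ_mem (j : ℕ) (hj : j < 3) : γ j ∈ Tg := ((Classical.choose_spec (g_ex j)).1 hj).1

theorem ψ_γ (j : ℕ) (hj : j < 3) : ψF (γ j) = model.toM (gP (2 * j)) :=
  ((Classical.choose_spec (g_ex j)).1 hj).2

theorem γ_ge (j : ℕ) (hj : 3 ≤ j) : γ j = 1 := (Classical.choose_spec (g_ex j)).2 hj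

theorem ψ_letY (l : ℕ) (hl : l < 6) : ψF (CS.letY γ l) = model.toM (gP l) := by
  rcases Nat.even_or_odd' l with ⟨j, rfl | rfl⟩
  · rw [CS.letY_even]
    exact ψ_γ j (by omega)
  · have hj : j < 3 := by omega
    rw [CS.letY_odd]
    exact Cfsg.Agent.Lib.Helper60.Ru.inv_val_of_chk (ψ_γ j hj) (inv_chk j hj)

theorem ψ_evY (w : List ℕ) (hw : ∀ l ∈ w, l < 6) : ψF (CS.evY γ w) = model.toM (evP w) := by
  induction w with
  | nil =>
    rw [CS.evY_nil, map_one]
    exact model.toM_one.symm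
  | cons l w ih =>
    rw [CS.evY_cons, map_mul, ψ_letY l (hw l List.mem_cons_self),
      ih (fun l' hl' => hw l' (List.mem_cons_of_mem _ hl'))]
    exact (model.toM_mul _ _).symm

theorem lt_of_all {w : List ℕ} {n : ℕ} (h : w.all (fun l => decide (l < n)) = true) :
    ∀ l ∈ w, l < n := fun l hl => of_decide_eq_true (List.all_eq_true.mp h l hl)

/-- words with the same packed value and letters below six -/
def weq6 (w w' : List ℕ) : Bool :=
  w.all (fun l => decide (l < 6)) && w'.all (fun l => decide (l < 6)) && weq w w'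

theorem evY_eq_of_weq {w w' : List ℕ} (h1 : ∀ l ∈ w, l < 6) (h2 : ∀ l ∈ w', l < 6)
    (h : weq w w' = true) : CS.evY γ w = CS.evY γ w' := by
  apply ψF_inj
  rw [ψ_evY w h1, ψ_evY w' h2]
  exact congrArg model.toM (Nat.eq_of_beq_eq_true h)

theorem evY_eq_one_of_weq {w : List ℕ} (h1 : ∀ l ∈ w, l < 6) (h : weq w [] = true) :
    CS.evY γ w = 1 :=
  (evY_eq_of_weq h1 (fun l hl => absurd hl List.not_mem_nil) h).trans (CS.evY_nil γ)

theorem evY_wrep (w : List ℕ) (n : ℕ) : CS.evY γ (wrep w n) = CS.evY γ w ^ n := by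
  induction n with
  | zero => rw [pow_zero]; rfl
  | succ n ih =>
    have h : wrep w (n + 1) = w ++ wrep w n := rfl
    rw [h, CS.evY_append, ih, pow_succ']

theorem wrep_lt (w : List ℕ) (k : ℕ) (h : ∀ l ∈ w, l < k) (n : ℕ) : ∀ l ∈ wrep w n, l < k := by
  induction n with
  | zero => intro l hl; exact absurd hl List.not_mem_nil
  | succ n ih =>
    intro l hl
    have h2 : wrep w (n + 1) = w ++ wrep w n := rfl
    rw [h2, List.mem_append] at hl
    rcases hl with hl | hl
    · exact h l hl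
    · exact ih l hl

/-! ### the subgroup -/

/-- the subgroup generated by the first two generators -/
noncomputable abbrev Hh : Subgroup GLf := genGrp model ψF HL.gen HL.r

theorem hgen_ex : ∀ l < HL.r, ∃ g, ψF g = model.toM (HL.gen l) := by
  intro l hl
  have hl2 : l < 2 := hl
  interval_cases l
  · exact ⟨γ 0, ψ_γ 0 (by norm_num)⟩
  · exact ⟨γ 1, ψ_γ 1 (by norm_num)⟩

theorem card_Hh : Nat.card Hh = 5616 := card_L HLok ψF_inj hgen_ex

theorem T_real : ∀ j < 5616, Real model ψF Hh (tT j) := L_sup HLok hgen_ex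

theorem γ0_mem : γ 0 ∈ Hh :=
  Subgroup.subset_closure ⟨0, by decide, ψ_γ 0 (by norm_num)⟩

theorem γ1_mem : γ 1 ∈ Hh :=
  Subgroup.subset_closure ⟨1, by decide, ψ_γ 1 (by norm_num)⟩

theorem Hh_le : Hh ≤ Tg := by
  apply genGrp_le ψF_inj
  intro l hl
  have hl2 : l < 2 := hl
  interval_cases l
  · exact ⟨γ 0, γ_mem 0 (by norm_num), ψ_γ 0 (by norm_num)⟩
  · exact ⟨γ 1, γ_mem 1 (by norm_num), ψ_γ 1 (by norm_num)⟩

/-- the subgroup is generated by the first two generators -/
theorem Hh_eq : Hh = Subgroup.closure {γ 0, γ 1} := by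
  apply le_antisymm
  · show Subgroup.closure {g : GLf | ∃ l < HL.r, ψF g = model.toM (HL.gen l)} ≤ _
    rw [Subgroup.closure_le]
    rintro g ⟨l, hl, hg⟩
    have hl2 : l < 2 := hl
    interval_cases l
    · have e : g = γ 0 := ψF_inj (hg.trans (ψ_γ 0 (by norm_num)).symm)
      rw [e]; exact Subgroup.subset_closure (Set.mem_insert _ _)
    · have e : g = γ 1 := ψF_inj (hg.trans (ψ_γ 1 (by norm_num)).symm)
      rw [e]; exact Subgroup.subset_closure (Set.mem_insert_of_mem _ rfl)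
  · rw [Subgroup.closure_le]
    rintro x (rfl | rfl)
    · exact γ0_mem
    · exact γ1_mem

/-! ### the coset table -/

/-- the coset representatives -/
noncomputable abbrev rhoG (c : ℕ) : GLf := CS.rho γ TitsC.par TitsC.plet c

theorem rhoG_succ (c : ℕ) (h0 : 0 < c) (hc : c < 3200) :
    rhoG c = rhoG (TitsC.par c) * CS.letY γ (TitsC.plet c) :=
  CS.rho_succ γ TitsC.par TitsC.plet 3200 (fun c h0 hc => (TitsC.htree c h0 hc).1) c h0 hc

theorem ψ_rho : ∀ c, c < 3200 → ψF (rhoG c) = model.toM (rR c) := by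
  intro c
  induction c using Nat.strong_induction_on with
  | _ c ih =>
    intro hc
    rcases Nat.eq_zero_or_pos c with rfl | hpos
    · have h0 : rhoG 0 = 1 := CS.rho_zero _ _ _
      rw [h0, map_one, r0_ok]
      exact model.toM_one.symm
    · obtain ⟨hp, hl, -⟩ := TitsC.htree c hpos hc
      rw [rhoG_succ c hpos hc, map_mul, ih _ hp (by omega), ψ_letY _ hl]
      have h := TitsC.allN2_spec _ _ _ rtab_ok c hc
      rw [Bool.or_eq_true] at h
      rcases h with h | h
      · have h2 : c = 0 := eq_of_beq h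
        omega
      · rw [Nat.eq_of_beq_eq_true h]
        exact (model.toM_mul _ _).symm

theorem hexG : ∀ c < 3200, ∀ j < 3,
    rhoG c * γ j * (rhoG (TitsC.nx c (2 * j)))⁻¹ ∈ Hh := by
  intro c hc j hj
  have hc' : TitsC.nx c (2 * j) < 3200 := (TitsC.htab c hc j hj).1
  have h := TitsC.allN_spec _ _ (TitsC.allN2_spec _ _ _ k_ok c hc) j hj
  rw [Bool.and_eq_true] at h
  obtain ⟨hk, he⟩ := h
  obtain ⟨g, hg, hgv⟩ := T_real (kk c j) (Nat.blt_eq.mp hk)
  have e : rhoG c * γ j = g * rhoG (TitsC.nx c (2 * j)) := by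
    apply ψF_inj
    rw [map_mul, map_mul, ψ_rho c hc, ψ_γ j hj, ψ_rho _ hc', hgv, ← model.toM_mul,
      ← model.toM_mul]
    exact congrArg model.toM (Nat.eq_of_beq_eq_true he)
  rw [e, mul_inv_cancel_right]
  exact hg

/-- the subgroup generated by the three generators -/
abbrev CC : Subgroup GLf := Subgroup.closure {γ 0, γ 1, γ 2}

theorem CC_eq : CC = Tg := by
  apply le_antisymm
  · rw [Subgroup.closure_le]
    rintro x (rfl | rfl | rfl)
    · exact γ_mem 0 (by norm_num)
    · exact γ_mem 1 (by norm_num)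
    · exact γ_mem 2 (by norm_num)
  · show genGrp model ψF lgen 2 ≤ CC
    rw [genGrp, Subgroup.closure_le]
    rintro g ⟨l, hl, hg⟩
    interval_cases l
    · have e : g = γ 0 := by
        apply ψF_inj
        rw [hg, ψ_γ 0 (by norm_num)]
        exact congrArg model.toM (Nat.eq_of_beq_eq_true g0_ok).symm
      rw [e]
      exact Subgroup.subset_closure (Set.mem_insert _ _)
    · have e : g = CS.evY γ wl1 := by
        apply ψF_inj
        rw [hg, ψ_evY wl1 wl1_lt]
        exact congrArg model.toM (Nat.eq_of_beq_eq_true l1_ok)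
      rw [e]
      exact CS.evY_mem_closure γ wl1 wl1_lt

theorem hneG : ∀ c, 0 < c → c < 3200 → rhoG c ∉ Hh :=
  TA.not_mem_of_card γ Hh 3200 TitsC.nx TitsC.par TitsC.plet (by norm_num) TitsC.htab hexG
    Tg CC_eq.symm Hh_le (by rw [card_Tg, card_Hh])

/-! ### relators -/

theorem cub_of_ok {Z : List ℕ} (h : cubOK Z = true) : CS.Cub γ Z := by
  unfold cubOK at h
  rw [Bool.or_eq_true, Bool.or_eq_true, Bool.and_eq_true] at h
  rcases h with (⟨h1, h2⟩ | h) | h
  · left
    have h4 : ∀ l ∈ Z, l < 4 := lt_of_all h1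
    refine ⟨h4, ?_⟩
    rw [← evY_wrep]
    exact evY_eq_one_of_weq (wrep_lt Z 6 (fun l hl => by have := h4 l hl; omega) 3) h2
  · right
    left
    exact eq_of_beq h
  · right
    right
    exact eq_of_beq h

theorem goodR : ∀ r ∈ TitsC.rels, (∀ l ∈ r, l < 6) ∧ CS.GoodR γ r := by
  intro r hr
  have hlt := TitsC.rels_lt r hr
  refine ⟨hlt, ?_⟩
  rw [rels_eq, List.mem_append, List.mem_append] at hr
  rcases hr with (hr | hr) | hr
  · have h := List.all_eq_true.mp hrels_ok r hr
    unfold hOK at h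
    rw [Bool.and_eq_true] at h
    left
    exact ⟨lt_of_all h.1, evY_eq_one_of_weq hlt h.2⟩
  · right
    left
    exact List.mem_singleton.mp hr
  · obtain ⟨d, hd, rfl⟩ := List.mem_map.mp hr
    have h := List.all_eq_true.mp r3_ok d hd
    unfold r3OK at h
    rw [Bool.and_eq_true, Bool.and_eq_true] at h
    right
    right
    have hl1 : ∀ l ∈ CS.winv d.1 ++ d.2.1 ++ d.1, l < 6 := by
      intro l hl
      apply hlt
      unfold r3word
      exact List.mem_append_left _ hl
    have hl2 : ∀ l ∈ CS.winv d.2.2.1 ++ d.2.2.2 ++ d.2.2.1, l < 6 := by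
      intro l hl
      have h3 : ∀ l' ∈ CS.winv (CS.winv d.2.2.1 ++ d.2.2.2 ++ d.2.2.1), l' < 6 := by
        intro l' hl'
        apply hlt
        unfold r3word
        exact List.mem_append_right _ hl'
      have h4 : (if l % 2 = 0 then l + 1 else l - 1) ∈
          CS.winv (CS.winv d.2.2.1 ++ d.2.2.2 ++ d.2.2.1) := by
        unfold CS.winv
        rw [List.mem_reverse]
        exact List.mem_map.mpr ⟨l, hl, rfl⟩
      have h5 := h3 _ h4
      split_ifs at h5 <;> omega
    exact ⟨d.1, d.2.1, d.2.2.1, d.2.2.2, rfl, cub_of_ok h.1.1, cub_of_ok h.1.2,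
      evY_eq_of_weq hl1 hl2 h.2⟩

theorem γ2_cube : γ 2 ^ 3 = 1 := by
  have h := evY_eq_one_of_weq (w := [4, 4, 4]) (by decide) c3_ok
  rw [CS.evY_cons, CS.evY_cons, CS.evY_cons, CS.evY_nil, mul_one] at h
  have e : CS.letY γ 4 = γ 2 := CS.letY_even γ 2
  rw [e] at h
  rw [pow_succ, pow_two, mul_assoc]
  exact h

/-- A central extension of the Tits group by a group of order two that splits over the
subgroup does not have its kernel inside the commutator subgroup. -/
theorem sign_T {Y : Type*} [Group Y] (τ : Y →* GLf) (z : Y) (hz1 : z ≠ 1)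
    (hker : ∀ k : Y, τ k = 1 → k = 1 ∨ k = z) (hzk : τ z = 1)
    (S : Subgroup Y) (hS : ∀ s ∈ S, τ s = 1 → s = 1) (hSH : S.map τ = Hh)
    (hrange : τ.range = Tg) : z ∉ commutator Y :=
  CSC.sign_coreC τ z hz1 hker hzk S hS Hh hSH γ γ0_mem γ1_mem
    (by rw [hrange]; exact γ_mem 2 (by norm_num)) γ2_cube γ_ge
    3200 TitsC.nx TitsC.par TitsC.plet TitsC.vt TitsC.it 6399 (by norm_num) TitsC.htab
    TitsC.htree TitsC.vhyp hexG hneG TitsC.rels goodR 497 (by norm_num) TitsC.rowsD
    TitsC.rowsD_ok TitsC.lead_ok TitsC.rowsF TitsC.rowsF_ok TitsC.chk_ok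
    (by rw [hrange, ← CC_eq])

end Cfsg.Agent.Lib.Helper7.TitsG
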