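import Cfsg.Agent.Lib.Helper7.Tits.Grp
import Cfsg.Agent.Lib.Helper60.F4.NoTwoTrans

set_option autoImplicit false
set_option maxRecDepth 100000

/-! # The Schur multiplier of the Tits group is trivial

The `2`-part by the sign method over a subgroup `L3(3)` of index 3200 (over which every
central extension by a group of order two splits, its Sylow `2`-subgroups being semidihedral
of order 16), the odd part by transfer into Sylow subgroups. -/

namespace Cfsg.Agent.Lib.Helper7.TitsS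

open Cfsg Cfsg.Lie Cfsg.Agent.Lib.Helper7 Cfsg.Agent.Lib.Helper35
open Cfsg.Agent.Lib.Helper60.F4 Cfsg.Agent.Lib.Helper60.Cert
open Cfsg.Agent.Lib.Helper7.TitsD Cfsg.Agent.Lib.Helper7.TitsG
open scoped commutatorElement

/-! ### from packed identities to identities in the group -/

theorem ψ_one : ψF (1 : GLf) = model.toM oneP := by
  rw [map_one]; exact model.toM_one.symm

theorem ψ_mul {a b : GLf} {m n : ℕ} (ha : ψF a = model.toM m) (hb : ψF b = model.toM n) :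
    ψF (a * b) = model.toM (mulP m n) := by
  rw [map_mul, ha, hb]; exact (model.toM_mul m n).symm

theorem ψ_pow {a : GLf} {m : ℕ} (ha : ψF a = model.toM m) (k : ℕ) :
    ψF (a ^ k) = model.toM (model.powP m k) := by
  rw [map_pow, ha]; exact (model.toM_powP m k).symm

theorem eq_of_packed {a b : GLf} {m n : ℕ} (ha : ψF a = model.toM m) (hb : ψF b = model.toM n)
    (h : Nat.beq m n = true) : a = b :=
  ψF_inj (by rw [ha, hb, Nat.eq_of_beq_eq_true h])

theorem ne_of_packed {a b : GLf} {m n : ℕ} (ha : ψF a = model.toM m) (hb : ψF b = model.toM n)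
    (h : model.neq m n = true) : a ≠ b := fun e => model.toM_ne h (by rw [← ha, ← hb, e])

theorem exists_pow_of_mem_zpowers {G : Type*} [Group G] {r x : G} {n : ℕ} (hn : 0 < n)
    (hr : r ^ n = 1) (hx : x ∈ Subgroup.zpowers r) : ∃ k < n, x = r ^ k := by
  obtain ⟨i, rfl⟩ := Subgroup.mem_zpowers_iff.mp hx
  have hn' : (n : ℤ) ≠ 0 := by exact_mod_cast hn.ne'
  have h0 := Int.emod_nonneg i hn'
  have h1 := Int.emod_lt_of_pos i (by exact_mod_cast hn : (0 : ℤ) < n)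
  refine ⟨(i % (n : ℤ)).toNat, by omega, ?_⟩
  rw [← zpow_natCast, Int.toNat_of_nonneg h0]
  have h2 : r ^ i = r ^ (i % (n : ℤ) + (n : ℤ) * (i / (n : ℤ))) := by rw [Int.emod_add_mul_ediv]
  rw [h2, zpow_add, zpow_mul, zpow_natCast, hr, one_zpow, mul_one]

/-! ### the three local arguments, for elements of an abstract group -/

section abs

variable {G Y : Type*} [Group G] [Group Y]

/-- a central extension splits over the commutator subgroup of the preimage of a semidihedral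
subgroup of order sixteen -/
theorem split_abs (τ : Y →* G) (r s₀ : G) (hrm : r ∈ τ.range) (hsm : s₀ ∈ τ.range)
    (h8' : r ^ 8 = 1) (h4' : r ^ 4 ≠ 1) (h2' : s₀ * s₀ = 1) (h3' : s₀ * r = r ^ 3 * s₀)
    (hc : τ.ker ≤ Subgroup.center Y) (w : Y)
    (hw : w ∈ ⁅(Subgroup.closure ({r, s₀} : Set G)).comap τ,
      (Subgroup.closure ({r, s₀} : Set G)).comap τ⁆) (hw1 : τ w = 1) : w = 1 := by
  have hrs : Function.Surjective τ.rangeRestrict := τ.rangeRestrict_surjective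
  have hkr : τ.rangeRestrict.ker ≤ Subgroup.center Y := by
    rw [MonoidHom.ker_rangeRestrict]; exact hc
  have h8 : (⟨r, hrm⟩ : ↥τ.range) ^ 8 = 1 := Subtype.ext h8'
  have h4 : (⟨r, hrm⟩ : ↥τ.range) ^ 4 ≠ 1 := fun h => h4' (congrArg Subtype.val h)
  have h2 : (⟨s₀, hsm⟩ : ↥τ.range) * ⟨s₀, hsm⟩ = 1 := Subtype.ext h2'
  have h3 : (⟨s₀, hsm⟩ : ↥τ.range) * ⟨r, hrm⟩ = ⟨r, hrm⟩ ^ 3 * ⟨s₀, hsm⟩ := Subtype.ext h3'
  have hle : (Subgroup.closure ({r, s₀} : Set G)).comap τ ≤ (Subgroup.closure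
      ({⟨r, hrm⟩, ⟨s₀, hsm⟩} : Set ↥τ.range)).comap τ.rangeRestrict := by
    intro y hy
    have hy' : τ y ∈ Subgroup.closure ({r, s₀} : Set G) := hy
    have hmap : Subgroup.closure ({r, s₀} : Set G) = (Subgroup.closure
        ({⟨r, hrm⟩, ⟨s₀, hsm⟩} : Set ↥τ.range)).map τ.range.subtype := by
      rw [MonoidHom.map_closure, Set.image_insert_eq, Set.image_singleton]
      rfl
    rw [hmap] at hy'
    obtain ⟨d, hd, hdy⟩ := hy'
    have e : τ.rangeRestrict y = d := Subtype.ext hdy.symm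
    rw [Subgroup.mem_comap, e]
    exact hd
  have hw2 := Subgroup.commutator_mono hle hle hw
  rw [← Subgroup.map_subtype_commutator] at hw2
  obtain ⟨w', hw', hww⟩ := hw2
  have hww' : (w' : Y) = w := hww
  rw [← hww']
  apply sd16_eq_one_of_mem_commutator τ.rangeRestrict hrs hkr h8 h4 h2 h3 w' hw'
  rw [hww']
  exact Subtype.ext hw1

/-- the kernel of a stem extension of a subgroup containing `5² : 4` with scalar action -/
theorem c5_abs (T : Subgroup G) [Finite T] (τ : Y →* ↥T) (hτ : IsStemExtension τ) {z : Y}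
    (hz : z ∈ τ.ker) (u v t : G) (hu : u ∈ T) (hv : v ∈ T) (ht : t ∈ T)
    (hu5 : u ^ 5 = 1) (hu1 : u ≠ 1) (hv5 : v ^ 5 = 1)
    (huv : u * v = v * u) (hvu : v ∉ Subgroup.zpowers u)
    (htu : t * u * t⁻¹ = u ^ 2) (htv : t * v * t⁻¹ = v ^ 2) (n : ℕ)
    (hG : Nat.card T = 25 * n) : z ^ n = 1 := by
  refine TA.stem_pow_eq_one_of_c5sq τ hτ hz (u := ⟨u, hu⟩) (v := ⟨v, hv⟩) (t := ⟨t, ht⟩)
    (Subtype.ext hu5) (fun h => hu1 (congrArg Subtype.val h)) (Subtype.ext hv5)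
    (Subtype.ext huv) ?_ (Subtype.ext htu) (Subtype.ext htv) n hG
  intro hmem
  apply hvu
  obtain ⟨i, hi⟩ := Subgroup.mem_zpowers_iff.mp hmem
  refine Subgroup.mem_zpowers_iff.mpr ⟨i, ?_⟩
  have h8 := congrArg Subtype.val hi
  rw [Subgroup.coe_zpow] at h8
  exact h8

/-- the kernel of a stem extension of a subgroup containing `3^{1+2}` with two reflections -/
theorem he27_abs (T : Subgroup G) [Finite T] (τ : Y →* ↥T) (hτ : IsStemExtension τ) {z : Y}
    (hz : z ∈ τ.ker) (u v s t : G) (hu : u ∈ T) (hv : v ∈ T) (hs : s ∈ T) (ht : t ∈ T)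
    (hu3 : u ^ 3 = 1) (hv3 : v ^ 3 = 1)
    (hc1 : ⁅u, v⁆ ≠ 1) (huc : u * ⁅u, v⁆ = ⁅u, v⁆ * u) (hvc : v * ⁅u, v⁆ = ⁅u, v⁆ * v)
    (hsu : s * u * s⁻¹ = u) (hsv : s * v * s⁻¹ = v⁻¹)
    (htu : t * u * t⁻¹ = u⁻¹) (htv : t * v * t⁻¹ = v) (n : ℕ)
    (hG : Nat.card T = 27 * n) : z ^ n = 1 :=
  TA.stem_pow_eq_one_of_he27_refl τ hτ hz
    (u := ⟨u, hu⟩) (v := ⟨v, hv⟩) (s := ⟨s, hs⟩) (t := ⟨t, ht⟩)
    (Subtype.ext hu3) (Subtype.ext hv3) (fun h => hc1 (congrArg Subtype.val h))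
    (Subtype.ext huc) (Subtype.ext hvc) (Subtype.ext hsu) (Subtype.ext hsv) (Subtype.ext htu)
    (Subtype.ext htv) n hG

end abs

/-- element number `j` of the subgroup -/
noncomputable def tE (j : ℕ) : GLf := if h : j < 5616 then Classical.choose (T_real j h) else 1

theorem tE_mem (j : ℕ) (hj : j < 5616) : tE j ∈ Hh := by
  unfold tE
  rw [dif_pos hj]
  exact (Classical.choose_spec (T_real j hj)).1

theorem ψ_tE (j : ℕ) (hj : j < 5616) : ψF (tE j) = model.toM (tT j) := by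
  unfold tE
  rw [dif_pos hj]
  exact (Classical.choose_spec (T_real j hj)).2

/-! ### a semidihedral subgroup of odd index in the subgroup -/

noncomputable abbrev rE : GLf := tE iR
noncomputable abbrev sE : GLf := tE iS

theorem hrE : ψF rE = model.toM (tT iR) := ψ_tE iR idx_ok.1
theorem hsE : ψF sE = model.toM (tT iS) := ψ_tE iS idx_ok.2.1

theorem sd_facts : rE ^ 8 = 1 ∧ rE ^ 4 ≠ 1 ∧ sE * sE = 1 ∧ sE * rE = rE ^ 3 * sE ∧
    ∀ i < 8, sE ≠ rE ^ i := by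
  have h := sd_ok
  rw [Bool.and_eq_true, Bool.and_eq_true, Bool.and_eq_true, Bool.and_eq_true] at h
  obtain ⟨⟨⟨⟨h1, h2⟩, h3⟩, h4⟩, h5⟩ := h
  refine ⟨eq_of_packed (ψ_pow hrE 8) ψ_one h1, ne_of_packed (ψ_pow hrE 4) ψ_one h2,
    eq_of_packed (ψ_mul hsE hsE) ψ_one h3,
    eq_of_packed (ψ_mul hsE hrE) (ψ_mul (ψ_pow hrE 3) hsE) h4, ?_⟩
  intro i hi
  exact ne_of_packed hsE (ψ_pow hrE i) (TitsC.allN_spec _ _ h5 i hi)

theorem rE_pow8 : rE ^ 8 = 1 := sd_facts.1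
theorem rE_pow4 : rE ^ 4 ≠ 1 := sd_facts.2.1
theorem sE_sq : sE * sE = 1 := sd_facts.2.2.1
theorem sE_rE : sE * rE = rE ^ 3 * sE := sd_facts.2.2.2.1

theorem orderOf_rE : orderOf rE = 8 := by
  have h := orderOf_eq_prime_pow (p := 2) (n := 2) (x := rE) (by norm_num; exact rE_pow4)
    (by norm_num; exact rE_pow8)
  exact h.trans (by norm_num)

theorem sE_not_mem : sE ∉ Subgroup.zpowers rE := by
  intro h
  obtain ⟨k, hk, e⟩ := exists_pow_of_mem_zpowers (by norm_num : 0 < 8) rE_pow8 h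
  exact sd_facts.2.2.2.2 k hk e

/-- the semidihedral subgroup -/
noncomputable abbrev DD : Subgroup GLf := Subgroup.closure {rE, sE}

theorem DD_le : DD ≤ Hh := by
  rw [Subgroup.closure_le]
  rintro x (rfl | rfl)
  · exact tE_mem iR idx_ok.1
  · exact tE_mem iS idx_ok.2.1

theorem DD_pgroup : IsPGroup 2 ↥DD := sd16_isPGroup rE_pow8 sE_sq sE_rE

theorem card_DD : 16 ∣ Nat.card ↥DD := by
  haveI : Fact (Nat.Prime 2) := ⟨Nat.prime_two⟩
  have h := pow_succ_dvd_card_of_pgroup DD (Subgroup.zpowers rE) DD_pgroup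
    (by rw [Subgroup.zpowers_le]; exact Subgroup.subset_closure (Set.mem_insert _ _)) 3
    (by rw [Nat.card_zpowers, orderOf_rE]; norm_num)
    (Subgroup.subset_closure (Set.mem_insert_of_mem _ rfl)) sE_not_mem
  exact h

theorem relIndex_odd : ∃ q : ℕ, DD.relIndex Hh = 2 * q + 1 := by
  have h1 := Subgroup.card_mul_index (DD.subgroupOf Hh)
  rw [Nat.card_congr (Subgroup.subgroupOfEquivOfLe DD_le).toEquiv, card_Hh] at h1
  have h2 : DD.relIndex Hh = (DD.subgroupOf Hh).index := rfl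
  rw [← h2] at h1
  obtain ⟨c, hc⟩ := card_DD
  rw [hc] at h1
  refine ⟨DD.relIndex Hh / 2, ?_⟩
  have h3 : DD.relIndex Hh % 2 = 1 := by
    by_contra h4
    have h5 : DD.relIndex Hh % 2 = 0 := by omega
    obtain ⟨d, hd⟩ := Nat.dvd_of_mod_eq_zero h5
    rw [hd] at h1
    have : 32 * (c * d) = 5616 := by rw [← h1]; ring
    omega
  omega

/-! ### the subgroup is perfect -/

theorem γ0_comm : γ 0 = ⁅tE iU0, tE iV0⁆ := by
  have h := cw_ok
  rw [Bool.and_eq_true] at h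
  have hu := ψ_tE iU0 idx_ok.2.2.1
  have hv := ψ_tE iV0 idx_ok.2.2.2.1
  have e : tE iU0 * tE iV0 = γ 0 * tE iV0 * tE iU0 :=
    eq_of_packed (ψ_mul hu hv) (ψ_mul (ψ_mul (ψ_γ 0 (by norm_num)) hv) hu) h.1
  rw [commutatorElement_def, e]
  group

theorem γ1_comm : γ 1 = ⁅tE iU1, tE iV1⁆ := by
  have h := cw_ok
  rw [Bool.and_eq_true] at h
  have hu := ψ_tE iU1 idx_ok.2.2.2.2.1
  have hv := ψ_tE iV1 idx_ok.2.2.2.2.2.1
  have e : tE iU1 * tE iV1 = γ 1 * tE iV1 * tE iU1 :=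
    eq_of_packed (ψ_mul hu hv) (ψ_mul (ψ_mul (ψ_γ 1 (by norm_num)) hv) hu) h.2
  rw [commutatorElement_def, e]
  group

theorem Hh_perfect : ⁅Hh, Hh⁆ = Hh := by
  apply le_antisymm
  · rw [Subgroup.commutator_le]
    intro a ha b hb
    rw [commutatorElement_def]
    exact Hh.mul_mem (Hh.mul_mem (Hh.mul_mem ha hb) (Hh.inv_mem ha)) (Hh.inv_mem hb)
  · have h : Subgroup.closure {γ 0, γ 1} ≤ ⁅Hh, Hh⁆ := by
      rw [Subgroup.closure_le]
      rintro x (rfl | rfl)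
      · rw [γ0_comm]
        exact Subgroup.commutator_mem_commutator (tE_mem iU0 idx_ok.2.2.1)
          (tE_mem iV0 idx_ok.2.2.2.1)
      · rw [γ1_comm]
        exact Subgroup.commutator_mem_commutator (tE_mem iU1 idx_ok.2.2.2.2.1)
          (tE_mem iV1 idx_ok.2.2.2.2.2.1)
    rw [← Hh_eq] at h
    exact h

/-! ### splitting over the subgroup -/

/-- a central extension of the Tits group by a group of exponent two splits over the
commutator subgroup of the preimage of the subgroup -/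
theorem split_Hh {Y : Type*} [Group Y] (τ : Y →* GLf) (hrange : τ.range = Tg)
    (hc : τ.ker ≤ Subgroup.center Y) (hk2 : ∀ k : Y, τ k = 1 → k * k = 1)
    (s : Y) (hs : s ∈ ⁅Hh.comap τ, Hh.comap τ⁆) (hs1 : τ s = 1) : s = 1 := by
  have hrm : rE ∈ τ.range := by
    rw [hrange]; exact Hh_le (tE_mem iR idx_ok.1)
  have hsm : sE ∈ τ.range := by
    rw [hrange]; exact Hh_le (tE_mem iS idx_ok.2.1)
  have hDc : ∀ w ∈ ⁅DD.comap τ, DD.comap τ⁆, τ w = 1 → w = 1 := fun w hw hw1 =>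
    split_abs τ rE sE hrm hsm rE_pow8 rE_pow4 sE_sq sE_rE hc w hw hw1
  have hpow := SA.pow_relIndex_eq_one Hh DD τ (by rw [hrange]; exact Hh_le) hc hDc s hs hs1
  obtain ⟨q, hq⟩ := relIndex_odd
  rw [hq, pow_succ, pow_mul, pow_two, hk2 s hs1, one_pow, one_mul] at hpow
  exact hpow

/-- no subgroup of index two in the kernel of a finite stem extension of the Tits group -/
theorem core2 (Y : Type) [Group Y] [Finite Y] (τ : Y →* ↥Tg) (hτ : IsStemExtension τ)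
    (K' : Subgroup ↥τ.ker) (hidx : K'.index = 2) : False := by
  classical
  have hker' : ∀ y : Y, (Tg.subtype.comp τ) y = 1 ↔ τ y = 1 := fun y =>
    ⟨fun h => Subtype.ext h, fun h => by rw [MonoidHom.comp_apply, h]; rfl⟩
  have hK₁A : K'.map τ.ker.subtype ≤ τ.ker := by
    rintro _ ⟨x, -, rfl⟩
    exact x.2
  have hmemK₁ : ∀ a : ↥τ.ker, (a : Y) ∈ K'.map τ.ker.subtype ↔ a ∈ K' := by
    intro a
    constructor
    · rintro ⟨x, hx, hxa⟩
      have h2 : x = a := Subtype.ext hxa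
      rw [← h2]
      exact hx
    · intro h
      exact ⟨a, h, rfl⟩
  haveI hK₁n : (K'.map τ.ker.subtype).Normal := by
    constructor
    intro n hn g
    have hc := Subgroup.mem_center_iff.mp (hτ.2.1 (hK₁A hn)) g
    rw [hc, mul_inv_cancel_right]
    exact hn
  obtain ⟨z₀, hz₀⟩ : ∃ a : ↥τ.ker, a ∉ K' := by
    by_contra hall
    push_neg at hall
    have h2 : K' = ⊤ := eq_top_iff.mpr fun a _ => hall a
    rw [h2, Subgroup.index_top] at hidx
    omega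
  have hz1 : (QuotientGroup.mk (z₀ : Y) : Y ⧸ K'.map τ.ker.subtype) ≠ 1 := by
    intro h
    rw [QuotientGroup.eq_one_iff] at h
    exact hz₀ ((hmemK₁ z₀).mp h)
  have hτmk : ∀ y : Y, (Tg.subtype.comp
      (QuotientGroup.lift (K'.map τ.ker.subtype) τ (fun x hx => hK₁A hx)))
        (QuotientGroup.mk y) = (Tg.subtype.comp τ) y := fun y => rfl
  have hkerq : ∀ q : Y ⧸ K'.map τ.ker.subtype, (Tg.subtype.comp
      (QuotientGroup.lift (K'.map τ.ker.subtype) τ (fun x hx => hK₁A hx))) q = 1 →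
      q = 1 ∨ q = QuotientGroup.mk (z₀ : Y) := by
    intro q hq
    obtain ⟨y, rfl⟩ := QuotientGroup.mk_surjective q
    have hy : y ∈ τ.ker := (hker' y).mp hq
    by_cases hyK : (⟨y, hy⟩ : ↥τ.ker) ∈ K'
    · left
      exact (QuotientGroup.eq_one_iff y).mpr ((hmemK₁ ⟨y, hy⟩).mpr hyK)
    · right
      rw [QuotientGroup.eq]
      have h1 : (⟨y, hy⟩ : ↥τ.ker)⁻¹ * z₀ ∈ K' := by
        rw [Subgroup.mul_mem_iff_of_index_two hidx]
        constructor
        · intro h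
          exact absurd (K'.inv_mem_iff.mp h) hyK
        · intro h
          exact absurd h hz₀
      exact (hmemK₁ _).mpr h1
  have hzk : (Tg.subtype.comp
      (QuotientGroup.lift (K'.map τ.ker.subtype) τ (fun x hx => hK₁A hx)))
        (QuotientGroup.mk (z₀ : Y)) = 1 := (hker' _).mpr z₀.2
  have hzcomm : (QuotientGroup.mk (z₀ : Y) : Y ⧸ K'.map τ.ker.subtype)
      ∈ commutator (Y ⧸ K'.map τ.ker.subtype) := by
    rw [← map_commutator_of_surjective (QuotientGroup.mk' (K'.map τ.ker.subtype))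
      (QuotientGroup.mk'_surjective _)]
    exact ⟨z₀, hτ.2.2 z₀.2, rfl⟩
  have hrange : (Tg.subtype.comp
      (QuotientGroup.lift (K'.map τ.ker.subtype) τ (fun x hx => hK₁A hx))).range
        = Tg := by
    ext σ
    constructor
    · rintro ⟨q, rfl⟩
      exact (QuotientGroup.lift (K'.map τ.ker.subtype) τ (fun x hx => hK₁A hx) q).2
    · intro hσ
      obtain ⟨y, hy⟩ := hτ.1 ⟨σ, hσ⟩
      exact ⟨QuotientGroup.mk y, by rw [hτmk, MonoidHom.comp_apply, hy]; rfl⟩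
  have hcen : (Tg.subtype.comp
      (QuotientGroup.lift (K'.map τ.ker.subtype) τ (fun x hx => hK₁A hx))).ker
        ≤ Subgroup.center (Y ⧸ K'.map τ.ker.subtype) := by
    intro q hq
    rw [Subgroup.mem_center_iff]
    intro g
    obtain ⟨y, rfl⟩ := QuotientGroup.mk_surjective q
    obtain ⟨g', rfl⟩ := QuotientGroup.mk_surjective g
    have hy : y ∈ τ.ker := (hker' y).mp (MonoidHom.mem_ker.mp hq)
    have hc := Subgroup.mem_center_iff.mp (hτ.2.1 hy) g'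
    rw [← QuotientGroup.mk_mul, ← QuotientGroup.mk_mul, hc]
  have hzz : (QuotientGroup.mk (z₀ : Y) : Y ⧸ K'.map τ.ker.subtype)
      * QuotientGroup.mk (z₀ : Y) = 1 := by
    rw [← QuotientGroup.mk_mul, QuotientGroup.eq_one_iff]
    have h1 : z₀ * z₀ ∈ K' := Subgroup.mul_self_mem_of_index_two hidx z₀
    exact (hmemK₁ (z₀ * z₀)).mpr h1
  have hk2 : ∀ q : Y ⧸ K'.map τ.ker.subtype, (Tg.subtype.comp
      (QuotientGroup.lift (K'.map τ.ker.subtype) τ (fun x hx => hK₁A hx))) q = 1 →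
      q * q = 1 := by
    intro q hq
    rcases hkerq q hq with rfl | rfl
    · exact one_mul 1
    · exact hzz
  refine sign_T _ _ hz1 hkerq hzk
    ⁅Hh.comap (Tg.subtype.comp
      (QuotientGroup.lift (K'.map τ.ker.subtype) τ (fun x hx => hK₁A hx))),
     Hh.comap (Tg.subtype.comp
      (QuotientGroup.lift (K'.map τ.ker.subtype) τ (fun x hx => hK₁A hx)))⁆
    ?_ ?_ hrange hzcomm
  · intro s hs h1
    exact split_Hh _ hrange hcen hk2 s hs h1
  · rw [Subgroup.map_commutator, Subgroup.map_comap_eq, hrange,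
      inf_eq_right.mpr Hh_le, Hh_perfect]

/-! ### the odd primes -/

theorem mem_Tg_of_evY (w : List ℕ) (hw : ∀ l ∈ w, l < 6) : CS.evY γ w ∈ Tg := by
  rw [← CC_eq]
  exact CS.evY_mem_closure γ w hw

theorem w5_lt : (∀ l ∈ w5u, l < 6) ∧ (∀ l ∈ w5v, l < 6) ∧ (∀ l ∈ w5t, l < 6) := by
  decide +kernel

/-- an element of order thirteen -/
theorem order_x13 : orderOf (⟨γ 0, γ_mem 0 (by norm_num)⟩ : ↥Tg) = 13 := by
  haveI : Fact (Nat.Prime 13) := ⟨by norm_num⟩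
  rw [Subgroup.orderOf_mk]
  have hg : ψF (γ 0) = model.toM (lgen 0) := by
    rw [ψ_γ 0 (by norm_num)]
    exact congrArg model.toM (Nat.eq_of_beq_eq_true g0_ok)
  exact orderOf_eq_prime_of ψF_inj hg (lord 0 (by norm_num)).1 (lord 0 (by norm_num)).2

theorem pow_13 {Y : Type*} [Group Y] (τ : Y →* ↥Tg) (hτ : IsStemExtension τ) {z : Y}
    (hz : z ∈ τ.ker) : z ^ 1382400 = 1 :=
  stem_pow_eq_one_of_orderOf τ hτ hz _ 13 1382400 (by norm_num) order_x13 (by rw [card_Tg])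

theorem pow_5 {Y : Type*} [Group Y] (τ : Y →* ↥Tg) (hτ : IsStemExtension τ) {z : Y}
    (hz : z ∈ τ.ker) : z ^ 718848 = 1 := by
  have h := p5_ok
  rw [Bool.and_eq_true, Bool.and_eq_true, Bool.and_eq_true, Bool.and_eq_true, Bool.and_eq_true,
    Bool.and_eq_true] at h
  obtain ⟨⟨⟨⟨⟨⟨h1, h2⟩, h3⟩, h4⟩, h5⟩, h6⟩, h7⟩ := h
  have hu := ψ_evY w5u w5_lt.1
  have hv := ψ_evY w5v w5_lt.2.1
  have ht := ψ_evY w5t w5_lt.2.2
  have hu5 : CS.evY γ w5u ^ 5 = 1 := eq_of_packed (ψ_pow hu 5) ψ_one h1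
  have hu1 : CS.evY γ w5u ≠ 1 := ne_of_packed hu ψ_one h2
  have hv5 : CS.evY γ w5v ^ 5 = 1 := eq_of_packed (ψ_pow hv 5) ψ_one h3
  have huv : CS.evY γ w5u * CS.evY γ w5v = CS.evY γ w5v * CS.evY γ w5u :=
    eq_of_packed (ψ_mul hu hv) (ψ_mul hv hu) h4
  have hvu : CS.evY γ w5v ∉ Subgroup.zpowers (CS.evY γ w5u) := by
    intro hmem
    obtain ⟨k, hk, e⟩ := exists_pow_of_mem_zpowers (by norm_num : 0 < 5) hu5 hmem
    exact ne_of_packed hv (ψ_pow hu k) (TitsC.allN_spec _ _ h5 k hk) e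
  have htu : CS.evY γ w5t * CS.evY γ w5u * (CS.evY γ w5t)⁻¹ = CS.evY γ w5u ^ 2 := by
    rw [eq_of_packed (ψ_mul ht hu) (ψ_mul (ψ_pow hu 2) ht) h6, mul_inv_cancel_right]
  have htv : CS.evY γ w5t * CS.evY γ w5v * (CS.evY γ w5t)⁻¹ = CS.evY γ w5v ^ 2 := by
    rw [eq_of_packed (ψ_mul ht hv) (ψ_mul (ψ_pow hv 2) ht) h7, mul_inv_cancel_right]
  exact c5_abs Tg τ hτ hz _ _ _ (mem_Tg_of_evY w5u w5_lt.1) (mem_Tg_of_evY w5v w5_lt.2.1)
    (mem_Tg_of_evY w5t w5_lt.2.2) hu5 hu1 hv5 huv hvu htu htv 718848 (by rw [card_Tg])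

theorem pow_3 {Y : Type*} [Group Y] (τ : Y →* ↥Tg) (hτ : IsStemExtension τ) {z : Y}
    (hz : z ∈ τ.ker) : z ^ 665600 = 1 := by
  have h := p3_ok
  rw [Bool.and_eq_true, Bool.and_eq_true, Bool.and_eq_true, Bool.and_eq_true, Bool.and_eq_true,
    Bool.and_eq_true, Bool.and_eq_true, Bool.and_eq_true] at h
  obtain ⟨⟨⟨⟨⟨⟨⟨⟨h1, h2⟩, h3⟩, h4⟩, h5⟩, h6⟩, h7⟩, h8⟩, h9⟩ := h
  have hu := ψ_tE i3u idx_ok.2.2.2.2.2.2.1
  have hv := ψ_tE i3v idx_ok.2.2.2.2.2.2.2.1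
  have hs := ψ_tE i3s idx_ok.2.2.2.2.2.2.2.2.1
  have ht := ψ_tE i3t idx_ok.2.2.2.2.2.2.2.2.2
  have hu3 : tE i3u ^ 3 = 1 := eq_of_packed (ψ_pow hu 3) ψ_one h1
  have hv3 : tE i3v ^ 3 = 1 := eq_of_packed (ψ_pow hv 3) ψ_one h2
  have hui : (tE i3u)⁻¹ = tE i3u ^ 2 := by
    apply inv_eq_of_mul_eq_one_right
    rw [← pow_succ', hu3]
  have hvi : (tE i3v)⁻¹ = tE i3v ^ 2 := by
    apply inv_eq_of_mul_eq_one_right
    rw [← pow_succ', hv3]
  have hw : ψF ⁅tE i3u, tE i3v⁆ = model.toM w3P := by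
    have e : ⁅tE i3u, tE i3v⁆ = (tE i3u * tE i3v) * (tE i3u ^ 2 * tE i3v ^ 2) := by
      rw [commutatorElement_def, hui, hvi]
      simp only [mul_assoc]
    rw [e]
    unfold w3P
    exact ψ_mul (ψ_mul hu hv) (ψ_mul (ψ_pow hu 2) (ψ_pow hv 2))
  have hc1 : ⁅tE i3u, tE i3v⁆ ≠ 1 := ne_of_packed hw ψ_one h3
  have huc : tE i3u * ⁅tE i3u, tE i3v⁆ = ⁅tE i3u, tE i3v⁆ * tE i3u :=
    eq_of_packed (ψ_mul hu hw) (ψ_mul hw hu) h4
  have hvc : tE i3v * ⁅tE i3u, tE i3v⁆ = ⁅tE i3u, tE i3v⁆ * tE i3v :=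
    eq_of_packed (ψ_mul hv hw) (ψ_mul hw hv) h5
  have hsu : tE i3s * tE i3u * (tE i3s)⁻¹ = tE i3u := by
    rw [eq_of_packed (ψ_mul hs hu) (ψ_mul hu hs) h6, mul_inv_cancel_right]
  have hsv : tE i3s * tE i3v * (tE i3s)⁻¹ = (tE i3v)⁻¹ := by
    rw [eq_of_packed (ψ_mul hs hv) (ψ_mul (ψ_pow hv 2) hs) h7, mul_inv_cancel_right, hvi]
  have htu : tE i3t * tE i3u * (tE i3t)⁻¹ = (tE i3u)⁻¹ := by
    rw [eq_of_packed (ψ_mul ht hu) (ψ_mul (ψ_pow hu 2) ht) h8, mul_inv_cancel_right, hui]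
  have htv : tE i3t * tE i3v * (tE i3t)⁻¹ = tE i3v := by
    rw [eq_of_packed (ψ_mul ht hv) (ψ_mul hv ht) h9, mul_inv_cancel_right]
  have mT : ∀ j, j < 5616 → tE j ∈ Tg := fun j hj => Hh_le (tE_mem j hj)
  exact he27_abs Tg τ hτ hz _ _ _ _ (mT _ idx_ok.2.2.2.2.2.2.1) (mT _ idx_ok.2.2.2.2.2.2.2.1)
    (mT _ idx_ok.2.2.2.2.2.2.2.2.1) (mT _ idx_ok.2.2.2.2.2.2.2.2.2) hu3 hv3 hc1 huc hvc hsu hsv
    htu htv 665600 (by rw [card_Tg])

/-! ### the theorem -/

/-- every finite stem extension of the Tits group (as a matrix group) is injective -/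
theorem coreT (Y : Type) [Group Y] [Finite Y] (τ : Y →* ↥Tg) (hτ : IsStemExtension τ) :
    τ.ker = ⊥ := by
  have h2048 : ∀ z ∈ τ.ker, z ^ 2048 = 1 := by
    intro z hz
    have d1 := orderOf_dvd_of_pow_eq_one (pow_13 τ hτ hz)
    have d2 := orderOf_dvd_of_pow_eq_one (pow_5 τ hτ hz)
    have d3 := orderOf_dvd_of_pow_eq_one (pow_3 τ hτ hz)
    have d4 : orderOf z ∣ Nat.gcd (Nat.gcd 1382400 718848) 665600 :=
      Nat.dvd_gcd (Nat.dvd_gcd d1 d2) d3
    have d5 : Nat.gcd (Nat.gcd 1382400 718848) 665600 = 2048 := by norm_num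
    rw [d5] at d4
    exact orderOf_dvd_iff_pow_eq_one.mp d4
  by_contra hne
  obtain ⟨z, hz, hz1⟩ : ∃ z ∈ τ.ker, z ≠ 1 := by
    by_contra hall
    push_neg at hall
    exact hne ((Subgroup.eq_bot_iff_forall _).mpr hall)
  have hdvd : 2 ∣ Nat.card ↥τ.ker := by
    have ho : orderOf z ∣ 2 ^ 11 := orderOf_dvd_of_pow_eq_one (h2048 z hz)
    obtain ⟨k, -, hk⟩ := (Nat.dvd_prime_pow Nat.prime_two).mp ho
    have hk0 : k ≠ 0 := by
      rintro rfl
      rw [pow_zero, orderOf_eq_one_iff] at hk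
      exact hz1 hk
    have h2 : 2 ∣ orderOf z := by
      rw [hk]
      exact dvd_pow_self 2 hk0
    have h3' : orderOf (⟨z, hz⟩ : ↥τ.ker) = orderOf z := Subgroup.orderOf_mk _ _
    exact h2.trans (h3' ▸ orderOf_dvd_natCard _)
  have hcomm : ∀ a b : ↥τ.ker, a * b = b * a := by
    intro a b
    apply Subtype.ext
    exact Subgroup.mem_center_iff.mp (hτ.2.1 b.2) a.1
  obtain ⟨K', hK'⟩ := SA.exists_index_two hcomm hdvd
  exact core2 Y τ hτ K' hK'

/-- the Schur multiplier of the Tits group, as a matrix group, is trivial -/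
theorem mult_Tg : HasCyclicSchurMultiplier ↥Tg 1 :=
  hasCyclicSchurMultiplier_one_of coreT

/-- the Schur multiplier of the Tits group is trivial -/
theorem mult_Tits : HasCyclicSchurMultiplier TitsGroup 1 := by
  obtain ⟨e⟩ := tits_equiv
  apply hasCyclicSchurMultiplier_one_of
  intro Y _ _ τ hτ
  have hstem : IsStemExtension (e.symm.toMonoidHom.comp τ) := by
    refine ⟨e.symm.surjective.comp hτ.1, ?_, ?_⟩
    · intro k hk
      apply hτ.2.1
      rw [MonoidHom.mem_ker] at hk ⊢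
      exact e.symm.injective (by rw [map_one]; exact hk)
    · intro k hk
      apply hτ.2.2
      rw [MonoidHom.mem_ker] at hk ⊢
      exact e.symm.injective (by rw [map_one]; exact hk)
  have h := coreT Y (e.symm.toMonoidHom.comp τ) hstem
  rw [Subgroup.eq_bot_iff_forall] at h ⊢
  intro x hx
  apply h x
  rw [MonoidHom.mem_ker] at hx ⊢
  rw [MonoidHom.comp_apply, hx]
  exact map_one _

end Cfsg.Agent.Lib.Helper7.TitsS
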